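import Cfsg.Agent.H190.Exc.Sec
import Cfsg.Agent.H72.AdjPSUW

/-!
# Families of primes with cyclic centralisers in `PSU_n(q)` (helper76, task EXC-PSU for helper190)

* `psi` : the group of the isometries of determinant one of a hermitian form maps to `PSU_n(q)`, kernel: scalars;
* `core` : three isometries, `X` commuting with `Y`, `Z`;
* `psu_card` : `Ind (PSU n F q) ρ` implies `ρ.card ≤ 2`.
-/

set_option autoImplicit false
set_option linter.unusedSectionVars false
open Cfsg Matrix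

namespace Cfsg.Agent.H76.Exc.PSU

open Cfsg.Agent.H186 Cfsg.Agent.ClassicalGeometry.GUBasic Cfsg.Agent.H103.UniBlock Cfsg.Agent.H103.PGUUpper
  Cfsg.Agent.H127 Cfsg.Agent.H127.UnitRoots Cfsg.Agent.H127.UnitSinger Cfsg.Agent.H72.AdjPSU Cfsg.Agent.H190.Exc

universe u

variable {F : Type u} [Field F] [Fintype F] {q n : ℕ}

section psi

variable {ι : Type} [Fintype ι] [DecidableEq ι]

/-- the isometries of determinant one of the form `J` -/
def Iso (hF : Fintype.card F = q ^ 2) (J : Matrix ι ι F) : Submonoid (Matrix ι ι F) where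
  carrier := {U | st q U * J * U = J ∧ U.det = 1}
  one_mem' := ⟨by rw [st_one hF, one_mul, mul_one], det_one⟩
  mul_mem' := by
    rintro U W ⟨h1, h2⟩ ⟨h3, h4⟩
    refine ⟨?_, by rw [det_mul, h2, h4, one_mul]⟩
    calc st q (U * W) * J * (U * W) = st q W * (st q U * J * U) * W := by
          rw [st_mul hF]
          simp only [mul_assoc]
      _ = J := by rw [h1, h3]

theorem exists_psi (hF : Fintype.card F = q ^ 2) (hn : 3 ≤ n) (e : Fin n ≃ ι) {J : Matrix ι ι F} (hJ : IsUnit J)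
    (hJs : st q J = J) : ∃ ψ : Iso hF J →* Cfsg.PSU n F q,
      ∀ U W : Iso hF J, ψ U = ψ W ↔ ∃ c : F, (W : Matrix ι ι F) = c • (U : Matrix ι ι F) := by
  obtain ⟨y, -, ⟨y, rfl⟩, hy⟩ := exists_st_mul hF J hJ hJs
  have hyy : (y : Matrix ι ι F) * ((y⁻¹ : (Matrix ι ι F)ˣ) : Matrix ι ι F) = 1 := Units.mul_inv y
  have hyy' : ((y⁻¹ : (Matrix ι ι F)ˣ) : Matrix ι ι F) * (y : Matrix ι ι F) = 1 := Units.inv_mul y
  set yi : Matrix ι ι F := ((y⁻¹ : (Matrix ι ι F)ˣ) : Matrix ι ι F) with hyi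
  have hsub : ∀ A B : Matrix ι ι F, (A * B).submatrix e e = A.submatrix e e * B.submatrix e e := fun A B =>
    (Matrix.submatrix_mul_equiv A B e e e).symm
  have hst : ∀ A : Matrix ι ι F, st q (A.submatrix e e) = (st q A).submatrix e e := fun A => rfl
  have hsub1 : (1 : Matrix ι ι F).submatrix e e = 1 := Matrix.submatrix_one_equiv e
  have key : ∀ U : Iso hF J, st q ((y * (U : Matrix ι ι F) * yi).submatrix e e) *
      (y * (U : Matrix ι ι F) * yi).submatrix e e = 1 := by
    intro U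
    rw [hst, ← hsub, ← hsub1]
    congr 1
    have h2 : st q yi * st q (y : Matrix ι ι F) = 1 := by rw [← st_mul hF, hyy, st_one hF]
    calc st q ((y : Matrix ι ι F) * (U : Matrix ι ι F) * yi) * ((y : Matrix ι ι F) * (U : Matrix ι ι F) * yi)
        = st q yi * (st q (U : Matrix ι ι F) * (st q (y : Matrix ι ι F) * (y : Matrix ι ι F)) *
            (U : Matrix ι ι F)) * yi := by
          rw [st_mul hF, st_mul hF]; simp only [mul_assoc]
      _ = (st q yi * st q (y : Matrix ι ι F)) * ((y : Matrix ι ι F) * yi) := by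
          rw [hy, U.2.1, ← hy]; simp only [mul_assoc]
      _ = 1 := by rw [h2, hyy, one_mul]
  have hdet : ∀ U : Iso hF J, ((y * (U : Matrix ι ι F) * yi).submatrix e e).det = 1 := by
    intro U
    rw [Matrix.det_submatrix_equiv_self, det_mul, det_mul, U.2.2, mul_one, ← det_mul, hyy, det_one]
  let T : Iso hF J → Cfsg.SU n F q := fun U => ⟨⟨(y * (U : Matrix ι ι F) * yi).submatrix e e, hdet U⟩, by
    let B' : GL (Fin n) F := ⟨_, _, mul_eq_one_comm.1 (key U), key U⟩
    have hB' : B' ∈ Cfsg.GU n F q := (mem_GU_iff_st hF B').2 (key U)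
    exact (Cfsg.Agent.LieClassical.SUBasic.mem_SU_iff _).2
      ((Cfsg.Agent.ClassicalGeometry.GUBasic.mem_GU_iff B').1 hB')⟩
  have hT : ∀ U : Iso hF J, mat (T U) = (y * (U : Matrix ι ι F) * yi).submatrix e e := fun U => rfl
  let φ : Iso hF J →* Cfsg.SU n F q :=
    { toFun := T
      map_one' := by
        apply Subtype.ext
        apply Subtype.ext
        show mat (T 1) = 1
        rw [hT, Submonoid.coe_one, mul_one, hyy, hsub1]
      map_mul' := by
        intro U W
        apply Subtype.ext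
        apply Subtype.ext
        show mat (T (U * W)) = mat (T U) * mat (T W)
        rw [hT, hT, hT, ← hsub, Submonoid.coe_mul]
        congr 1
        calc (y : Matrix ι ι F) * ((U : Matrix ι ι F) * (W : Matrix ι ι F)) * yi
            = y * (U : Matrix ι ι F) * (1 * (W : Matrix ι ι F)) * yi := by rw [one_mul]; simp only [mul_assoc]
          _ = _ := by rw [← hyy']; simp only [mul_assoc] }
  refine ⟨(QuotientGroup.mk' _).comp φ, fun U W => ?_⟩
  have hmk : ((QuotientGroup.mk' (Subgroup.center (Cfsg.SU n F q))).comp φ) U =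
      ((QuotientGroup.mk' (Subgroup.center (Cfsg.SU n F q))).comp φ) W ↔
      (QuotientGroup.mk (T U) : Cfsg.PSU n F q) = QuotientGroup.mk (T W) := Iff.rfl
  rw [hmk, QuotientGroup.eq]
  have hconj : ∀ (A B : Matrix ι ι F) (c : F), (y * A * yi).submatrix e e = c • (y * B * yi).submatrix e e ↔ A = c • B := by
    intro A B c
    constructor
    · intro h
      have h1 : (c • (y * B * yi)).submatrix e e = c • (y * B * yi).submatrix e e := rfl
      rw [← h1] at h
      have h4 := congrArg (fun M : Matrix (Fin n) (Fin n) F => M.submatrix e.symm e.symm) h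
      simp only [Matrix.submatrix_submatrix, Equiv.self_comp_symm, Matrix.submatrix_id_id] at h4
      calc A = yi * (y * A * yi) * y := by
            calc A = (yi * y) * A * (yi * y) := by rw [hyy', one_mul, mul_one]
              _ = _ := by simp only [mul_assoc]
        _ = yi * (c • (y * B * yi)) * y := by rw [h4]
        _ = c • ((yi * y) * B * (yi * y)) := by
            rw [Matrix.mul_smul, Matrix.smul_mul]
            simp only [mul_assoc]
        _ = c • B := by rw [hyy', one_mul, mul_one]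
    · rintro rfl
      rw [Matrix.mul_smul, Matrix.smul_mul]
      rfl
  constructor
  · intro h
    rw [Cfsg.Agent.LieClassical.SUBasic.mem_center_SU_iff hF hn] at h
    obtain ⟨c, hcn, hcq, h⟩ := h
    refine ⟨c, ?_⟩
    rw [← hconj, ← hT, ← hT]
    have h1 : T W = T U * Cfsg.Agent.LieClassical.SUBasic.suScalar q c hcn hcq := by
      rw [← h, mul_inv_cancel_left]
    rw [h1, mat_mul]
    change mat (T U) * Matrix.diagonal (fun _ => c) = _
    rw [← Matrix.smul_one_eq_diagonal, Matrix.mul_smul, mul_one]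
  · rintro ⟨c, hc⟩
    rw [← hconj, ← hT, ← hT] at hc
    have h1 : mat ((T U)⁻¹ * T W) = c • 1 := by
      rw [mat_mul, hc, Matrix.mul_smul, ← mat_mul, inv_mul_cancel]
      rfl
    exact mem_center_of_scalar h1

/-- **`X` of order `r` commuting with two `p`-elements.** -/
theorem core (hF : Fintype.card F = q ^ 2) (hn : 3 ≤ n) (e : Fin n ≃ ι) {J : Matrix ι ι F} (hJ : IsUnit J)
    (hJs : st q J = J) {r p : ℕ} (hr : r.Prime) (hp : p.Prime) (hc : CC (Cfsg.PSU n F q) r)
    {X Y Z : Matrix ι ι F} (hX : X ∈ Iso hF J) (hY : Y ∈ Iso hF J) (hZ : Z ∈ Iso hF J) (hXY : Y * X = X * Y)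
    (hXZ : Z * X = X * Z) (hXr : X ^ r = 1) (hX1 : ∀ c : F, X ≠ c • (1 : Matrix ι ι F)) (hYp : Y ^ p = 1)
    (hZp : Z ^ p = 1) (hZ1 : ∀ c : F, Z ≠ c • (1 : Matrix ι ι F)) : ∃ (k : ℕ) (c : F), Z ^ k = c • Y := by
  obtain ⟨ψ, hψ⟩ := exists_psi hF hn e hJ hJs
  have hfin : Finite (Cfsg.SU n F q) := inferInstance
  have hfin' : Finite (Cfsg.PSU n F q) := inferInstance
  have h1 : ∀ (U : Iso hF J), ψ U = 1 → ∃ c : F, (U : Matrix ι ι F) = c • (1 : Matrix ι ι F) := by
    intro U hU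
    have h2 : ψ 1 = ψ U := by rw [hU, map_one]
    exact (hψ 1 U).1 h2
  have hpow : ∀ (U : Iso hF J) (k : ℕ), (U : Matrix ι ι F) ^ k = 1 → (ψ U) ^ k = 1 := by
    intro U k hk
    rw [← map_pow]
    have h3 : U ^ k = 1 := Subtype.ext hk
    rw [h3, map_one]
  have : Fact r.Prime := ⟨hr⟩
  have : Fact p.Prime := ⟨hp⟩
  have hoX : orderOf (ψ ⟨X, hX⟩) = r := by
    apply orderOf_eq_prime (hpow ⟨X, hX⟩ r hXr)
    intro h2
    obtain ⟨c, hc⟩ := h1 _ h2
    exact hX1 c hc
  have hoZ : orderOf (ψ ⟨Z, hZ⟩) = p := by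
    apply orderOf_eq_prime (hpow ⟨Z, hZ⟩ p hZp)
    intro h2
    obtain ⟨c, hc⟩ := h1 _ h2
    exact hZ1 c hc
  have hoY : orderOf (ψ ⟨Y, hY⟩) ∣ orderOf (ψ ⟨Z, hZ⟩) := by
    rw [hoZ]
    exact orderOf_dvd_of_pow_eq_one (hpow ⟨Y, hY⟩ p hYp)
  have hcY : Commute (ψ ⟨Y, hY⟩) (ψ ⟨X, hX⟩) := by
    have h2 : (⟨Y, hY⟩ : Iso hF J) * ⟨X, hX⟩ = ⟨X, hX⟩ * ⟨Y, hY⟩ := Subtype.ext hXY
    show ψ _ * ψ _ = ψ _ * ψ _
    rw [← map_mul, ← map_mul, h2]
  have hcZ : Commute (ψ ⟨Z, hZ⟩) (ψ ⟨X, hX⟩) := by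
    have h2 : (⟨Z, hZ⟩ : Iso hF J) * ⟨X, hX⟩ = ⟨X, hX⟩ * ⟨Z, hZ⟩ := Subtype.ext hXZ
    show ψ _ * ψ _ = ψ _ * ψ _
    rw [← map_mul, ← map_mul, h2]
  have h3 := hc.mem_zpowers hoX hcY hcZ hoY
  rw [← mem_powers_iff_mem_zpowers] at h3
  obtain ⟨k, hk⟩ := h3
  have hk' : ψ ⟨Y, hY⟩ = ψ (⟨Z, hZ⟩ ^ k) := by
    rw [map_pow]
    exact hk.symm
  obtain ⟨c, hc'⟩ := (hψ _ _).1 hk'
  exact ⟨k, c, hc'⟩

end psi

section blocks

/-- the hyperbolic plane -/
def J2 (F : Type u) [Field F] : Matrix (Fin 2) (Fin 2) F := !![0, 1; 1, 0]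

theorem isUnit_J2 : IsUnit (J2 F) := by
  have h : J2 F * J2 F = 1 := by
    rw [J2, Matrix.mul_fin_two, Matrix.one_fin_two]
    simp
  exact ⟨⟨_, _, h, h⟩, rfl⟩

theorem st_J2 (hF : Fintype.card F = q ^ 2) : st q (J2 F) = J2 F := by
  have hq := two_le hF
  ext i j
  rw [st_apply, J2]
  fin_cases i <;> fin_cases j <;> simp [show q ≠ 0 by omega]

/-- an element of trace zero -/
theorem exists_skew (hF : Fintype.card F = q ^ 2) : ∃ a : F, a ≠ 0 ∧ a ^ q = -a := by
  obtain ⟨t, ht⟩ := exists_pow_ne hF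
  obtain ⟨p, hp⟩ := CharP.exists F
  have : Fact p.Prime := ⟨CharP.char_is_prime F p⟩
  obtain ⟨j, hj, -⟩ := UnitRoots.exists_eq_pow hF p
  refine ⟨t ^ q - t, sub_ne_zero.2 ht, ?_⟩
  have h1 : (t ^ q - t) ^ q = (t ^ q) ^ q - t ^ q := by
    rw [hj]
    exact sub_pow_char_pow _ _ _
  rw [h1, pow_pow_q hF]
  ring

theorem upper_pow (a : F) (k : ℕ) : (!![1, a; 0, 1] : Matrix (Fin 2) (Fin 2) F) ^ k = !![1, k * a; 0, 1] := by
  induction k with
  | zero => simp [Matrix.one_fin_two]
  | succ k ih =>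
    rw [pow_succ, ih, Matrix.mul_fin_two]
    have h1 : a + (k : F) * a = ((k : F) + 1) * a := by ring
    simp [h1]

theorem lower_pow (a : F) (k : ℕ) : (!![1, 0; a, 1] : Matrix (Fin 2) (Fin 2) F) ^ k = !![1, 0; k * a, 1] := by
  induction k with
  | zero => simp [Matrix.one_fin_two]
  | succ k ih =>
    rw [pow_succ, ih, Matrix.mul_fin_two]
    have h1 : (k : F) * a + a = ((k : F) + 1) * a := by ring
    simp [h1]

theorem upper_iso (hF : Fintype.card F = q ^ 2) {a : F} (ha : a ^ q = -a) :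
    st q (!![1, a; 0, 1] : Matrix (Fin 2) (Fin 2) F) * J2 F * !![1, a; 0, 1] = J2 F := by
  have hq := two_le hF
  have h1 : st q (!![1, a; 0, 1] : Matrix (Fin 2) (Fin 2) F) = !![1, 0; -a, 1] := by
    ext i j
    rw [st_apply]
    fin_cases i <;> fin_cases j <;> simp [ha, show q ≠ 0 by omega]
  rw [h1, J2, Matrix.mul_fin_two, Matrix.mul_fin_two]
  simp

theorem lower_iso (hF : Fintype.card F = q ^ 2) {a : F} (ha : a ^ q = -a) :
    st q (!![1, 0; a, 1] : Matrix (Fin 2) (Fin 2) F) * J2 F * !![1, 0; a, 1] = J2 F := by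
  have hq := two_le hF
  have h1 : st q (!![1, 0; a, 1] : Matrix (Fin 2) (Fin 2) F) = !![1, -a; 0, 1] := by
    ext i j
    rw [st_apply]
    fin_cases i <;> fin_cases j <;> simp [ha, show q ≠ 0 by omega]
  rw [h1, J2, Matrix.mul_fin_two, Matrix.mul_fin_two]
  simp

/-- **`X` acts as a scalar on a nondegenerate plane.** -/
theorem core_two (hF : Fintype.card F = q ^ 2) (hn : 3 ≤ n) {a : ℕ} (ha : 1 ≤ a) (hna : n = a + 2) {r : ℕ}
    (hr : r.Prime) (hc : CC (Cfsg.PSU n F q) r) {A : Matrix (Fin a) (Fin a) F} (c : F) (hA : st q A * A = 1)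
    (hcq : c ^ (q + 1) = 1) (hdet : A.det * c ^ 2 = 1) (hAr : A ^ r = 1) (hcr : c ^ r = 1)
    (hAc : A ≠ c • (1 : Matrix (Fin a) (Fin a) F)) : False := by
  have hq := two_le hF
  obtain ⟨p, hp⟩ := CharP.exists F
  have hpp : p.Prime := CharP.char_is_prime F p
  obtain ⟨s, hs0, hs⟩ := exists_skew hF
  let e : Fin n ≃ Fin a ⊕ Fin 2 := (finCongr hna).trans finSumFinEquiv.symm
  have hc2 : st q (c • (1 : Matrix (Fin 2) (Fin 2) F)) * J2 F * (c • 1) = J2 F := by
    rw [st_smul, st_one hF, Matrix.smul_mul, one_mul, Matrix.mul_smul, mul_one, smul_smul, ← pow_succ', hcq, one_smul]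
  have hmem : ∀ (M : Matrix (Fin a) (Fin a) F) (N : Matrix (Fin 2) (Fin 2) F), st q M * M = 1 →
      st q N * J2 F * N = J2 F → M.det * N.det = 1 → fromBlocks M 0 0 N ∈ Iso hF (fromBlocks 1 0 0 (J2 F)) := by
    intro M N h1 h2 h3
    refine ⟨?_, ?_⟩
    · rw [st_fromBlocks (by omega), fromBlocks_multiply, fromBlocks_multiply]
      simp only [Matrix.mul_zero, Matrix.zero_mul, add_zero, zero_add, mul_one, h1, h2]
    · rw [Matrix.det_fromBlocks_zero₂₁, h3]
  have h1 : st q (1 : Matrix (Fin a) (Fin a) F) * 1 = 1 := by rw [st_one hF, one_mul]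
  obtain ⟨k, b, hk⟩ := core hF hn e (J := fromBlocks 1 0 0 (J2 F)) (isUnit_fromBlocks isUnit_one isUnit_J2)
    (by rw [st_fromBlocks (by omega), st_one hF, st_J2 hF]) hr hpp hc
    (X := fromBlocks A 0 0 (c • 1)) (Y := fromBlocks 1 0 0 !![1, s; 0, 1]) (Z := fromBlocks 1 0 0 !![1, 0; s, 1])
    (hmem _ _ hA hc2 (by rw [Matrix.det_smul, det_one, mul_one, Fintype.card_fin, hdet]))
    (hmem _ _ h1 (upper_iso hF hs) (by rw [det_one, Matrix.det_fin_two_of]; ring))
    (hmem _ _ h1 (lower_iso hF hs) (by rw [det_one, Matrix.det_fin_two_of]; ring))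
    (by
      rw [fromBlocks_multiply, fromBlocks_multiply]
      simp only [Matrix.mul_zero, Matrix.zero_mul, add_zero, zero_add, mul_one, one_mul, Matrix.mul_smul,
        Matrix.smul_mul, smul_zero])
    (by
      rw [fromBlocks_multiply, fromBlocks_multiply]
      simp only [Matrix.mul_zero, Matrix.zero_mul, add_zero, zero_add, mul_one, one_mul, Matrix.mul_smul,
        Matrix.smul_mul, smul_zero])
    (by rw [fromBlocks_pow, hAr, smul_pow, one_pow, hcr, one_smul, fromBlocks_one])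
    (by
      intro b hb
      obtain ⟨h2, h3⟩ := fromBlocks_eq_smul hb
      have h4 : c = b := by
        have := congrFun (congrFun h3 0) 0
        simpa using this
      rw [← h4] at h2
      exact hAc h2)
    (by rw [fromBlocks_pow, one_pow, upper_pow, CharP.cast_eq_zero, zero_mul, ← Matrix.one_fin_two, fromBlocks_one])
    (by rw [fromBlocks_pow, one_pow, lower_pow, CharP.cast_eq_zero, zero_mul, ← Matrix.one_fin_two, fromBlocks_one])
    (by
      intro b hb
      obtain ⟨-, h3⟩ := fromBlocks_eq_smul hb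
      have := congrFun (congrFun h3 1) 0
      exact hs0 (by simpa using this))
  rw [fromBlocks_pow, one_pow, fromBlocks_smul, lower_pow, fromBlocks_inj] at hk
  obtain ⟨h2, -, -, h3⟩ := hk
  have h4 : b = 1 := by
    have := congrFun (congrFun h2 ⟨0, ha⟩) ⟨0, ha⟩
    simpa using this.symm
  rw [h4, one_smul] at h3
  have := congrFun (congrFun h3 0) 1
  exact hs0 (by simpa using this.symm)

/-- a block in standard form -/
theorem std_of_block (hF : Fintype.card F = q ^ 2) {a b r : ℕ} (hr : r ≠ 1) (h : HasBlock F q a r) (hab : a ≤ b) :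
    ∃ A : Matrix (Fin b) (Fin b) F, st q A * A = 1 ∧ A.det = 1 ∧ A ^ r = 1 ∧ A ≠ 1 := by
  have hq := two_le hF
  obtain ⟨A, hA, hdet, h1, h2⟩ := h
  obtain ⟨c, hc⟩ : ∃ c, b = a + c := ⟨b - a, by omega⟩
  let e : Fin b ≃ Fin a ⊕ Fin c := (finCongr hc).trans finSumFinEquiv.symm
  set A' : Matrix (Fin b) (Fin b) F := (fromBlocks A 0 0 1).submatrix e e with hA'
  have hd' : A'.det = 1 := by
    rw [hA', Matrix.det_submatrix_equiv_self, Matrix.det_fromBlocks_zero₂₁, hdet, det_one, one_mul]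
  have hpow : ∀ k : ℕ, A' ^ k = (fromBlocks (A ^ k) 0 0 1).submatrix e e := by
    intro k
    induction k with
    | zero => rw [pow_zero, pow_zero, fromBlocks_one, Matrix.submatrix_one_equiv]
    | succ k ih =>
      rw [pow_succ, ih, hA', Matrix.submatrix_mul_equiv, fromBlocks_multiply]
      simp only [Matrix.mul_zero, Matrix.zero_mul, add_zero, zero_add, mul_one, ← pow_succ]
  obtain ⟨x, hx, h3⟩ := uni_submatrix e (uni_fromBlocks (by omega) hA (uni_one (ι := Fin c) hF))
  have hAu : IsUnit A' := by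
    rw [Matrix.isUnit_iff_isUnit_det, hd']
    exact isUnit_one
  obtain ⟨y, hy, B, hB, hyB⟩ := exists_isometry hF A' x hx hAu h3
  have hdy : IsUnit y.det := (Matrix.isUnit_iff_isUnit_det y).1 hy
  have hBdet : B.det = 1 := by
    have h1 := congrArg Matrix.det hyB
    rw [Matrix.det_mul, Matrix.det_mul, hd', mul_one, mul_comm] at h1
    exact (hdy.mul_left_cancel (h1.symm.trans (mul_one _).symm))
  have hk : ∀ k : ℕ, y * A' ^ k = B ^ k * y := by
    intro k
    induction k with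
    | zero => simp
    | succ k ih => rw [pow_succ, ← mul_assoc, ih, mul_assoc, hyB, ← mul_assoc, ← pow_succ]
  refine ⟨B, hB, hBdet, ?_, ?_⟩
  · have h4 := hk r
    rw [hpow, h1, fromBlocks_one, Matrix.submatrix_one_equiv, mul_one] at h4
    exact (hy.mul_right_cancel (h4.symm.trans (one_mul y).symm))
  · intro h4
    have h5 := hk 1
    rw [h4, one_pow, one_mul, pow_one] at h5
    have h6 : A' = 1 := hy.mul_left_cancel (h5.trans (mul_one y).symm)
    have h7 : A = 1 := by
      have h8 := congrArg (fun M : Matrix (Fin b) (Fin b) F => M.submatrix e.symm e.symm) h6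
      simp only [hA', Matrix.submatrix_submatrix, Equiv.self_comp_symm, Matrix.submatrix_id_id] at h8
      rw [Matrix.submatrix_one_equiv, ← fromBlocks_one, fromBlocks_inj] at h8
      exact h8.1
    exact hr (Nat.dvd_one.1 (h2 1 (by rw [pow_one, h7])))

/-- **No small blocks.** -/
theorem false_of_block (hF : Fintype.card F = q ^ 2) (hn : 3 ≤ n) {r : ℕ} (hr : r.Prime)
    (hc : CC (Cfsg.PSU n F q) r) {a : ℕ} (h : HasBlock F q a r) (ha : a + 2 ≤ n) : False := by
  obtain ⟨A, hA, hdet, hAr, hA1⟩ := std_of_block hF hr.one_lt.ne' h (b := n - 2) (by omega)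
  refine core_two hF hn (a := n - 2) (by omega) (by omega) hr hc (A := A) 1 hA (one_pow _) ?_ hAr (one_pow _) ?_
  · rw [hdet, one_pow, mul_one]
  · rw [one_smul]
    exact hA1

theorem exists_order (hF : Fintype.card F = q ^ 2) {r : ℕ} (hr : r.Prime) (h : r ∣ q + 1) :
    ∃ c : F, c ^ (q + 1) = 1 ∧ c ^ r = 1 ∧ c ≠ 1 := by
  classical
  have hq := two_le hF
  obtain ⟨y, hy⟩ := IsCyclic.exists_generator (α := Fˣ)
  have hordy : orderOf y = q ^ 2 - 1 := by
    rw [orderOf_eq_card_of_forall_mem_zpowers hy, Nat.card_units, Nat.card_eq_fintype_card, hF]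
  have hfac : q ^ 2 - 1 = (q + 1) * (q - 1) := by
    have := Nat.sq_sub_sq q 1
    rw [one_pow] at this
    exact this
  have hrd : r ∣ q ^ 2 - 1 := by
    rw [hfac]
    exact h.mul_right _
  have h1 : orderOf (y ^ ((q ^ 2 - 1) / r)) = r := by
    have h2 : orderOf y ≠ 0 := by
      rw [hordy, hfac]
      exact Nat.mul_ne_zero (by omega) (by omega)
    have h3 := orderOf_pow_orderOf_div h2 (n := r) (by rw [hordy]; exact hrd)
    rwa [hordy] at h3
  set w := y ^ ((q ^ 2 - 1) / r) with hw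
  refine ⟨(w : F), ?_, ?_, ?_⟩
  · rw [← Units.val_pow_eq_pow_val, orderOf_dvd_iff_pow_eq_one.1 (by rw [h1]; exact h), Units.val_one]
  · rw [← Units.val_pow_eq_pow_val, orderOf_dvd_iff_pow_eq_one.1 (by rw [h1]), Units.val_one]
  · intro h2
    have h3 : w = 1 := Units.ext h2
    rw [h3, orderOf_one] at h1
    exact hr.one_lt.ne h1

/-- `n = 3`, `r` divides `q + 1` -/
theorem three_dvd (hF : Fintype.card F = q ^ 2) {r : ℕ} (hr : r.Prime) (h3 : r ≠ 3) (hc : CC (Cfsg.PSU 3 F q) r)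
    (h : r ∣ q + 1) : False := by
  have hq := two_le hF
  obtain ⟨c, hcq, hcr, hc1⟩ := exists_order hF hr h
  have hc0 : c ≠ 0 := by
    rintro rfl
    rw [zero_pow (by omega)] at hcq
    exact zero_ne_one hcq
  have hd : ((c ^ 2)⁻¹) ^ (q + 1) = 1 := by rw [inv_pow, ← pow_mul, mul_comm, pow_mul, hcq, one_pow, inv_one]
  refine core_two hF le_rfl (a := 1) le_rfl rfl hr hc (A := (c ^ 2)⁻¹ • (1 : Matrix (Fin 1) (Fin 1) F)) c ?_ hcq ?_ ?_
    hcr ?_
  · rw [st_smul, st_one hF, Matrix.smul_mul, one_mul, smul_smul, ← pow_succ, hd, one_smul]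
  · rw [Matrix.det_smul, det_one, mul_one, Fintype.card_fin, pow_one, inv_mul_cancel₀ (pow_ne_zero _ hc0)]
  · rw [smul_pow, one_pow, inv_pow, ← pow_mul, mul_comm, pow_mul, hcr, one_pow, inv_one, one_smul]
  · intro h1
    have h2 : (c ^ 2)⁻¹ = c := by
      have := congrFun (congrFun h1 0) 0
      simpa using this
    have h4 : c ^ 3 = 1 := by
      have h8 : c ^ 2 * (c ^ 2)⁻¹ = 1 := mul_inv_cancel₀ (pow_ne_zero _ hc0)
      rw [h2] at h8
      rw [pow_succ, h8]
    have h5 : orderOf c ∣ 3 := orderOf_dvd_of_pow_eq_one h4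
    have h6 : orderOf c ∣ r := orderOf_dvd_of_pow_eq_one hcr
    have h7 : orderOf c ∣ 1 := by
      rw [← (Nat.coprime_primes hr Nat.prime_three).2 h3]
      exact Nat.dvd_gcd h6 h5
    exact hc1 (orderOf_eq_one_iff.1 (Nat.dvd_one.1 h7))

end blocks

section three

/-- the form of the unitary space of dimension three -/
def J3 (F : Type u) [Field F] : Matrix (Fin 3) (Fin 3) F := !![0, 0, 1; 0, 1, 0; 1, 0, 0]

theorem isUnit_J3 : IsUnit (J3 F) := by
  have h : J3 F * J3 F = 1 := by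
    rw [J3]
    ext i j
    fin_cases i <;> fin_cases j <;> simp [Matrix.mul_apply, Fin.sum_univ_three]
  exact ⟨⟨_, _, h, h⟩, rfl⟩

theorem st_J3 (hF : Fintype.card F = q ^ 2) : st q (J3 F) = J3 F := by
  have hq := two_le hF
  ext i j
  rw [st_apply, J3]
  fin_cases i <;> fin_cases j <;> simp [show q ≠ 0 by omega]

/-- unipotent elements -/
def uu (a b c : F) : Matrix (Fin 3) (Fin 3) F := !![1, a, b; 0, 1, c; 0, 0, 1]

theorem uu_mul (a b c a' b' c' : F) : uu a b c * uu a' b' c' = uu (a + a') (b + a * c' + b') (c + c') := by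
  rw [uu, uu, uu]
  ext i j
  fin_cases i <;> fin_cases j <;> simp [Matrix.mul_apply, Fin.sum_univ_three] <;> ring

theorem uu_det (a b c : F) : (uu a b c).det = 1 := by
  rw [uu, Matrix.det_fin_three]
  simp

theorem uu_zero : uu (0 : F) 0 0 = 1 := by
  rw [uu]
  ext i j
  fin_cases i <;> fin_cases j <;> simp

/-- `n = 3`, `r` the characteristic -/
theorem three_char (hF : Fintype.card F = q ^ 2) {r : ℕ} (hr : r.Prime) (h3 : r ≠ 2) (hc : CC (Cfsg.PSU 3 F q) r)
    [hch : CharP F r] : False := by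
  have hq := two_le hF
  have hrp : Fact r.Prime := ⟨hr⟩
  obtain ⟨s, hs0, hs⟩ := exists_skew hF
  obtain ⟨j, hj, hj1⟩ := UnitRoots.exists_eq_pow hF r
  have h2 : (2 : F) ≠ 0 := by
    intro h2
    have h4 : ((2 : ℕ) : F) = 0 := by exact_mod_cast h2
    rw [CharP.cast_eq_zero_iff F r] at h4
    exact h3 ((Nat.prime_dvd_prime_iff_eq hr Nat.prime_two).1 h4)
  have hodd : Odd q := by
    rw [hj]
    exact (hr.odd_of_ne_two h3).pow
  obtain ⟨h, hh⟩ : ∃ h : F, 2 * h = 1 := ⟨2⁻¹, mul_inv_cancel₀ h2⟩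
  have hh' : h ^ q = h := by
    have h5 : (2 : F) ^ q = 2 := by
      rw [hj]
      have := map_natCast (iterateFrobenius F r j) 2
      rw [iterateFrobenius_def] at this
      exact_mod_cast this
    have h6 : (2 : F) * h ^ q = 1 := by
      rw [← h5, ← mul_pow, hh, one_pow]
    apply mul_left_cancel₀ h2
    rw [h6, hh]
  have hz : uu 0 s 0 ∈ Iso hF (J3 F) := by
    refine ⟨?_, uu_det _ _ _⟩
    have h5 : st q (uu 0 s 0) = !![1, 0, 0; 0, 1, 0; -s, 0, 1] := by
      ext i j
      rw [st_apply, uu]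
      fin_cases i <;> fin_cases j <;> simp [hs, show q ≠ 0 by omega]
    rw [h5, J3, uu]
    ext i j
    fin_cases i <;> fin_cases j <;> simp [Matrix.mul_apply, Fin.sum_univ_three]
  have hu : uu 1 (-h) (-1) ∈ Iso hF (J3 F) := by
    refine ⟨?_, uu_det _ _ _⟩
    have h5 : st q (uu 1 (-h) (-1)) = !![1, 0, 0; 1, 1, 0; -h, -1, 1] := by
      ext i j
      rw [st_apply, uu]
      fin_cases i <;> fin_cases j <;> simp [hodd.neg_pow, hh', show q ≠ 0 by omega]
    rw [h5, J3, uu]
    have h6 : h + h = 1 := by rw [← two_mul, hh]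
    ext i j
    fin_cases i <;> fin_cases j <;> simp [Matrix.mul_apply, Fin.sum_univ_three]
    linear_combination -h6
  have hupow : ∀ k : ℕ, uu (1 : F) (-h) (-1) ^ k = uu (k : F) (-(k ^ 2 * h)) (-k) := by
    intro k
    induction k with
    | zero => rw [pow_zero, Nat.cast_zero, neg_zero, zero_pow two_ne_zero, zero_mul, neg_zero, uu_zero]
    | succ k ih =>
      rw [pow_succ, ih, uu_mul]
      congr 1
      · push_cast
        ring
      · push_cast
        linear_combination (k : F) * hh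
      · push_cast
        ring
  have hzpow : ∀ k : ℕ, uu (0 : F) s 0 ^ k = uu 0 (k * s) 0 := by
    intro k
    induction k with
    | zero => rw [pow_zero, Nat.cast_zero, zero_mul, uu_zero]
    | succ k ih =>
      rw [pow_succ, ih, uu_mul]
      congr 1
      · ring
      · push_cast
        ring
      · ring
  have hz1 : uu (0 : F) s 0 ^ r = 1 := by rw [hzpow, CharP.cast_eq_zero, zero_mul, uu_zero]
  obtain ⟨k, b, hk⟩ := core hF le_rfl (Equiv.refl (Fin 3)) isUnit_J3 (st_J3 hF) hr hr hc hz hz hu rfl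
    (by rw [uu_mul, uu_mul]; congr 1 <;> ring) hz1 (by
      intro c h5
      have := congrFun (congrFun h5 0) 2
      exact hs0 (by simpa [uu] using this)) hz1
    (by rw [hupow, CharP.cast_eq_zero, neg_zero, zero_pow two_ne_zero, zero_mul, neg_zero, uu_zero]) (by
      intro c h5
      have := congrFun (congrFun h5 0) 1
      simp [uu] at this)
  rw [hupow] at hk
  have e1 := congrFun (congrFun hk 0) 0
  have e2 := congrFun (congrFun hk 0) 1
  have e3 := congrFun (congrFun hk 0) 2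
  simp only [uu, Matrix.smul_apply, Matrix.of_apply, Matrix.cons_val', Matrix.cons_val_zero, Matrix.cons_val_one,
    smul_eq_mul, mul_one, mul_zero, Matrix.cons_val, Matrix.cons_val_fin_one] at e1 e2 e3
  rw [e2, ← e1] at e3
  exact hs0 (by simpa using e3.symm)

end three

/-- the classes of the primes -/
theorem class_eq (hF : Fintype.card F = q ^ 2) (hn : 3 ≤ n) {r : ℕ} (hr : r.Prime) (h3 : 3 < r)
    (hd : r ∣ Nat.card (Cfsg.PSU n F q)) (hc : CC (Cfsg.PSU n F q) r) :
    ¬ r ∣ q ∧ (nu q r = n ∨ nu q r = n - 1) := by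
  have hq := two_le hF
  have h0 : ¬ (r ∣ q ∨ r ∣ q + 1) := by
    intro h
    rcases Nat.eq_or_lt_of_le hn with h4 | h4
    · subst h4
      rcases h with h | h
      · obtain ⟨p, hp⟩ := CharP.exists F
        have : Fact p.Prime := ⟨CharP.char_is_prime F p⟩
        obtain ⟨j, hj, -⟩ := UnitRoots.exists_eq_pow hF p
        rw [hj] at h
        have h1 : r = p := (Nat.prime_dvd_prime_iff_eq hr this.out).1 (hr.dvd_of_dvd_pow h)
        subst h1
        exact three_char hF hr (by omega) hc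
      · exact three_dvd hF hr (by omega) hc h
    · have h1 := hasBlock_wU hF hr
      rw [wU, if_pos h] at h1
      exact false_of_block hF hn hr hc h1 (by omega)
  have h1 := hasBlock_wU hF hr
  rw [wU, if_neg h0] at h1
  rw [not_or] at h0
  have h2 := nu_le hF (by omega) hr h0.1 hd
  refine ⟨h0.1, ?_⟩
  by_contra hne
  exact false_of_block hF hn hr hc h1 (by omega)

/-- **`PSU_n(q)`.** -/
theorem psu_card {n : ℕ} (hn : 3 ≤ n) {F : Type u} [Field F] [Fintype F] {q : ℕ} (hF : Fintype.card F = q ^ 2)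
    {ρ : Finset ℕ} (h : Ind (Cfsg.PSU n F q) ρ) : ρ.card ≤ 2 := by
  classical
  have hcl : ∀ r ∈ ρ, ¬ r ∣ q ∧ (nu q r = n ∨ nu q r = n - 1) := fun r hr =>
    class_eq hF hn (h.prime r hr) (by have := h.ge r hr; omega) (h.dvd r hr) (h.cc r hr)
  have hinj : Set.InjOn (nu q) ρ := by
    intro r hr s hs hrs
    by_contra hne
    refine h.not_adj hr hs hne (adj_of_nu hF hn (h.prime r hr) (h.prime s hs) hne (hcl r hr).1 hrs ?_)
    rcases (hcl r hr).2 with h1 | h1 <;> omega
  have h1 : ρ.image (nu q) ⊆ {n, n - 1} := by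
    intro k hk
    obtain ⟨r, hr, rfl⟩ := Finset.mem_image.1 hk
    rw [Finset.mem_insert, Finset.mem_singleton]
    exact (hcl r hr).2
  have h2 := Finset.card_le_card h1
  rw [Finset.card_image_of_injOn hinj] at h2
  exact h2.trans Finset.card_le_two

end Cfsg.Agent.H76.Exc.PSU
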